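import Cfsg.Agent.Ito.U2
import Cfsg.Agent.PF.Lin

/-! Exceptional characters for an abelian TI-subgroup of index two in its normalizer. -/

set_option autoImplicit false
set_option linter.unusedSectionVars false

namespace CF.Ito

open CF.Small CF.Small.PSet Cfsg CF.PF Subgroup
open scoped ComplexConjugate

variable {G : Type*} [Group G] [Finite G] {E : Subgroup G} {θ : G → ℂ}

theorem mul_mem_of_two {L : Subgroup G} (h : E.relIndex L = 2) {a b : G} (ha : a ∈ L) (hb : b ∈ L)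
    (ha' : a ∉ E) (hb' : b ∉ E) : a * b ∈ E :=
  mem_subgroupOf.1 ((mul_mem_iff_of_index_two h (a := ⟨a, ha⟩) (b := ⟨b, hb⟩)).2
    (by simpa [mem_subgroupOf, ha'] using hb'))

theorem sq_mem_of_two {L : Subgroup G} (h : E.relIndex L = 2) {a : G} (ha : a ∈ L) : a ^ 2 ∈ E :=
  mem_subgroupOf.1 (sq_mem_of_index_two h ⟨a, ha⟩)

variable (hc : ∀ a ∈ E, ∀ b ∈ E, a * b = b * a) (ho : Odd (Nat.card E))
  (hN : E.relIndex (normalizer (E : Set G)) = 2)
  (ti : NTI ((E : Set G) \ {1}) ⊤ (normalizer (E : Set G)))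
include hc ho hN ti

theorem exists_not_comm (hG : commutator G = ⊤) (hE : E ≠ ⊥) :
    ∃ τ ∈ normalizer (E : Set G), ∃ y ∈ E, τ * y ≠ y * τ := by
  by_contra! h
  obtain ⟨r, hr, hd⟩ := Nat.exists_prime_and_dvd (mt card_eq_one.1 hE)
  have := Fact.mk hr
  obtain ⟨y, hy⟩ := exists_prime_orderOf_dvd_card' r hd
  rw [← orderOf_coe] at hy
  obtain ⟨Q, hQ⟩ := (IsPGroup.of_card (G := zpowers (y : G)) (n := 1)
    (by rw [Nat.card_zpowers, hy, pow_one])).exists_le_sylow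
  have y1 : (y : G) ≠ 1 := fun e => hr.ne_one (by rw [← hy, e, orderOf_one])
  have h1 : ∀ x ∈ (Q : Subgroup G), x ∈ normalizer (E : Set G) → x ∈ E := fun x hx hx' => by
    obtain ⟨n, hn⟩ := IsPGroup.iff_orderOf.1 Q.isPGroup' ⟨x, hx⟩
    rw [← orderOf_coe] at hn
    obtain ⟨m, hm⟩ : Odd (orderOf x) := hn ▸ (ho.of_dvd_nat hd).pow
    have := pow_mem (sq_mem_of_two hN hx') (m + 1)
    rwa [← pow_mul, show 2 * (m + 1) = orderOf x + 1 by omega, pow_succ, pow_orderOf_eq_one,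
      one_mul] at this
  have : Nontrivial Q := nontrivial_iff_ne_bot _ |>.2 fun e => y1 (mem_bot.1 (e.le (hQ (mem_zpowers _))))
  obtain ⟨⟨w, hw⟩, w1⟩ := @exists_ne _ Q.isPGroup'.center_nontrivial 1
  have h2 : (w : G) ∈ (E : Set G) \ {1} := ⟨h1 _ w.2 (ti.centralizer_le ⟨y.2, y1⟩ trivial
    (congrArg Subtype.val (mem_center_iff.1 hw ⟨y, hQ (mem_zpowers _)⟩)).symm),
      fun e => w1 (Subtype.ext (Subtype.ext e))⟩
  have h3 : (Q : Subgroup G) ≤ E := fun x hx => h1 x hx (ti.centralizer_le h2 trivial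
    (congrArg Subtype.val (mem_center_iff.1 hw ⟨x, hx⟩)))
  refine not_normalizer_le_centralizer_of_perfect hG (hd.trans (card_subgroup_dvd_card E)) Q
    fun g hg x hx => (h g (ti.ti _ h2 g trivial ⟨h3 ((hg _).1 w.2), ?_⟩) x (h3 hx)).symm
  simpa using h2.2

theorem exists_lam (hG : commutator G = ⊤) (hE : E ≠ ⊥) : ∃ τ ∈ normalizer (E : Set G), τ ∉ E ∧
    ∃ i : Lin E, i ≠ 1 ∧ cj τ (lin i) = star (lin i) := by
  obtain ⟨τ, h1, y, hy, h2⟩ := exists_not_comm hc ho hN ti hG hE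
  have h3 : τ ∉ E := fun h => h2 (hc _ h _ hy)
  have h4 : ∀ {x}, x ∈ E → τ * x * τ⁻¹ ∈ E := fun hx => (h1 _).1 hx
  obtain ⟨j, hj⟩ : ∃ j : Lin E, lin j (τ * y * τ⁻¹ * y⁻¹) ≠ 1 := by
    by_contra! h
    have := sum_lin_apply hc (x := τ * y * τ⁻¹ * y⁻¹) (by rwa [Ne, mul_inv_eq_one, mul_inv_eq_iff_eq_mul])
    simp [h] at this
  obtain ⟨l, hl⟩ := exists_lin ((isCh_lin j).cj h1) (by simp)
  refine ⟨τ, h1, h3, j * l⁻¹, fun e => hj ?_, ?_⟩
  · rw [mul_inv_eq_one] at e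
    rw [lin_map_mul _ (h4 hy) (inv_mem hy), ← cj_apply τ (lin j), ← hl, ← e,
      ← lin_map_mul _ hy (inv_mem hy), mul_inv_cancel, lin_apply_one]
  · rw [lin_mul, lin_inv, hl, cj_mul, cj_star, cj_cj, cj_eq_self (lin_cfn j)
      (mul_mem_of_two hN h1 h1 h3 h3), star_mul, star_star]

theorem exists_chi (hG : commutator G = ⊤) (hE : E ≠ ⊥) (hθ : θ ∈ irr (⊤ : Subgroup G))
    (h1 : θ ≠ triv ⊤) (hr : star θ = θ) (hv : ∀ y ∈ E, y ≠ 1 → θ y = 1) :
    ∃ χ ∈ irr (⊤ : Subgroup G), ∃ i : Lin E, i ≠ 1 ∧ star χ = χ ∧ χ 1 = θ 1 + 1 ∧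
      (∀ y ∈ E, y ≠ 1 → χ y = lin i y + lin i⁻¹ y) ∧
      ∀ g, (∀ x, x * g * x⁻¹ ∉ E) → χ g = θ g + 1 := by
  classical
  obtain ⟨τ, t1, t2, i, i1, i2⟩ := exists_lam hc ho hN ti hG hE
  let α := triv E - lin i
  have a1 : α ∈ ZIrr E := sub_mem (triv_mem_ZIrr E) (lin_zirr i)
  have a2 : α ∈ Supp ((E : Set G) \ {1}) := fun x hx => by
    by_cases h : x ∈ E
    · simp [α, show x = 1 from not_not.1 fun k => hx ⟨h, k⟩]
    · exact CFn.zero (cfn_of_zirr a1) h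
  have a3 : cj τ α = star α := by rw [map_sub, cj_triv t1, i2, star_sub, star_triv]
  have a4 : α + star α ∈ CFn E := add_mem (cfn_of_zirr a1) (CFn.star (cfn_of_zirr a1))
  have a5 : cj τ (α + star α) = α + star α := by rw [map_add, cj_star, a3, star_star, add_comm]
  have a6 : α + star α ∈ CFn (normalizer (E : Set G)) :=
    ⟨fun x hx => CFn.zero a4 fun k => hx (le_normalizer k), fun n hn x => by
      by_cases h : n ∈ E
      · exact CFn.conj a4 h x
      · have := CFn.conj a4 (mul_mem_of_two hN hn (inv_mem t1) h (by simpa using t2)) (τ * x * τ⁻¹)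
        rw [← cj_apply τ (α + star α) x, a5] at this
        rw [← this]; group⟩
  have b1 : star (ind E ⊤ α) = ind E ⊤ α := by rw [← ind_star, ← a3, ind_cj t1 (mem_top τ)]
  have b2 : ind E ⊤ α = ind (normalizer (E : Set G)) ⊤ (α + star α) := by
    have h2 : ind E ⊤ (α + star α) = (2 : ℂ) • ind E ⊤ α := by rw [map_add, ind_star, b1, two_smul]
    funext g
    have h3 := congrFun h2 g
    rw [ind_apply, res_eq_self (CFn.supp a4), Pi.smul_apply, smul_eq_mul] at h3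
    rw [ind_apply _ _ (α + _), res_eq_self (CFn.supp a6), card_eq_relIndex_mul le_normalizer, hN]
    push_cast
    linear_combination (-2⁻¹) * h3
  have b3 : ∀ y ∈ (E : Set G) \ {1}, ind E ⊤ α y = (α + star α) y := fun y hy => by
    rw [b2, ti.ind_eq' a6 (add_mem a2 (Supp.star a2)) hy]
  have b4 := ZIrr.ind le_top a1
  have c1 : ip E α (triv E) = 1 := by
    rw [ip_sub_left, ip_triv_triv, ← lin_one, ip_lin, if_neg i1, sub_zero]
  have c2 : ip ⊤ (ind E ⊤ α) (triv ⊤) = 1 := by rw [ip_ind_triv le_top, c1]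
  have c3 : ip ⊤ (ind E ⊤ α) θ = 1 := by
    rw [ip_ind_left' le_top _ (cfn_of_irr hθ), ← c1]
    exact ip_congr_of_supp _ a2 fun x hx k => by rw [hv x k hx.2, triv_of_mem k]
  have c4 : ip ⊤ (ind E ⊤ α) (ind E ⊤ α) = 3 := by
    rw [ip_ind_left' le_top _ (cfn_of_zirr b4), ip_congr_of_supp _ a2 fun x hx _ => b3 x hx]
    simp only [α, star_sub, ← lin_one, ← lin_inv, ip_add_right, ip_sub_left, ip_sub_right, ip_lin]
    simp [i1, i1.symm, (Lin.inv_ne ho i1).symm, eq_inv_iff_mul_eq_one]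
    norm_num
  have d1 : θ + triv ⊤ - ind E ⊤ α ∈ ZIrr ⊤ :=
    sub_mem (add_mem (zirr_of_irr hθ) (triv_mem_ZIrr _)) b4
  have d2 : (θ + triv ⊤ - ind E ⊤ α : G → ℂ) 1 = θ 1 + 1 := by simp [ind_one, α]
  refine ⟨_, irr_of_rip_self d1 ?_ ?_, i, i1, by rw [star_sub, star_add, hr, star_triv, b1], d2,
    fun y hy y1 => ?_, fun g hg => ?_⟩
  · simp only [rip, ip_add_left, ip_add_right, ip_sub_left, ip_sub_right, ip_irr_self hθ,
      ip_triv_triv, ip_irr_ne hθ (triv_mem_irr _) h1, ip_irr_ne (triv_mem_irr _) hθ h1.symm,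
      ip_comm (zirr_of_irr hθ) b4, ip_comm (triv_mem_ZIrr _) b4, c2, c3, c4]
    norm_num
  · have := irr_one_re_pos hθ
    rw [d2, Complex.add_re, Complex.one_re]; linarith
  · simp only [Pi.sub_apply, Pi.add_apply, b3 y ⟨hy, y1⟩, hv y hy y1, α, lin_inv, star_sub, star_triv,
      triv_of_mem hy, triv_of_mem (mem_top y)]
    ring
  · have : ind E ⊤ α g = 0 := by_contra fun h => (exists_of_ind_ne_zero h).elim fun x k => hg x k.2.1
    simp [this, triv_top]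

end CF.Ito
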