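import Cfsg.Agent.Ito.U3
import Cfsg.Agent.Ito.Thr
import Cfsg.Agent.Small.SC2
import Cfsg.Agent.Perm.PrimeDegree2

/-! Groups of prime degree `p` with a unique character of degree `p`: basic structure. -/

set_option autoImplicit false
set_option linter.unusedSectionVars false

namespace CF.Ito

open CF.Small CF.Small.PSet Cfsg CF.PF Subgroup MulAction Finset CF.Perm
open scoped ComplexConjugate

variable {p : ℕ} [hp : Fact p.Prime] {G : Type*} [Group G] [Fintype G]

/-- The standing hypotheses. -/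
structure Uc (S : PSet p G) (Ω : Type*) [MulAction G Ω] [Fintype Ω] (θ : G → ℂ) : Prop where
  SK : S.K = ⊥
  card : Fintype.card Ω = p
  faith : FaithfulSMul G Ω
  tr : IsPretransitive G Ω
  NE : S.H.relIndex (normalizer (S.H : Set G)) = 2
  ti : NTI ((S.H : Set G) \ {1}) ⊤ (normalizer (S.H : Set G))
  ir : θ ∈ irr (⊤ : Subgroup G)
  deg : charDegree θ = p
  uniq : ∀ χ ∈ irr (⊤ : Subgroup G), charDegree χ = p → χ = θ

namespace Uc

variable {S : PSet p G} {Ω : Type*} [MulAction G Ω] [Fintype Ω] [DecidableEq Ω] {θ : G → ℂ}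
  (C : Uc S Ω θ)
include C

theorem eq_one_of_fx {g : G} (h : fx Ω g = p) : g = 1 := by
  have := C.faith
  rw [← C.card, fx, card_eq_iff_eq_univ] at h
  exact FaithfulSMul.eq_of_smul_eq_smul (α := Ω) fun x => by
    rw [one_smul, ← mem_fs, h]; exact mem_univ _

theorem fx_mod {l : ℕ} (hl : l.Prime) {g : G} (e : g ^ l = 1) : (fx Ω g : ℤ) ≡ p [ZMOD l] := by
  have := fx_modEq (Ω := Ω) hl (h := 1) (g := g) (by simpa using e)
  rwa [fx_one, C.card] at this

theorem S_ne {i : ZMod p} (hi : i ≠ 0) (a : Ω) : S.zp i • a ≠ a := fun e => by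
  have h1 : fx Ω (S.zp i) < p :=
    lt_of_le_of_ne ((fx_le _).trans C.card.le) (mt C.eq_one_of_fx (mt S.zp_eq_one_iff.1 hi))
  have h2 := (C.fx_mod hp.out (S.zp_pow_p i)).symm.dvd
  rw [dvd_sub_left dvd_rfl, Int.natCast_dvd_natCast] at h2
  exact notMem_empty a (card_eq_zero.1 (Nat.eq_zero_of_dvd_of_lt h2 h1) ▸ mem_fs.2 e)

theorem exists_S (a b : Ω) : ∃ i, S.zp i • a = b := by
  have inj : Function.Injective fun i => S.zp i • a := fun i j e => by
    by_contra h
    refine C.S_ne (i := -j + i) (fun e => h (by linear_combination e)) a ?_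
    rw [S.zp_add, mul_smul, S.zp_neg, inv_smul_eq_iff]
    exact e
  exact ((Fintype.bijective_iff_injective_and_card _).2 ⟨inj, by rw [ZMod.card, C.card]⟩).2 b

theorem fix_eq {y : G} (hy : y ∈ S.H) (y1 : y ≠ 1) {a b : Ω} (ha : y • a = a) (hb : y • b = b) :
    b = a := by
  obtain ⟨c, rfl⟩ := C.exists_S a b
  by_contra h
  have hc : c ≠ 0 := by rintro rfl; simp at h
  refine C.S_ne (i := -c + S.act y * c) (fun e => notMem_C_of_mem_H C.SK hy y1
    ((S.act_eq_one_iff (S.H_le hy)).1 (mul_right_cancel₀ hc (by linear_combination e)))) a ?_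
  rw [S.zp_add, S.zp_neg, mul_smul, inv_smul_eq_iff, ← S.conj_zp (S.H_le hy), mul_smul,
    mul_smul, inv_smul_eq_iff.2 ha.symm, hb]

theorem comm : ∀ a ∈ S.H, ∀ b ∈ S.H, a * b = b * a := comm_of_isCyclic (isCyclic_H C.SK)

theorem theta_one : θ 1 = p := by rw [exists_degree C.ir, C.deg]

theorem fi_ne : S.fi ≠ 1 := fun h => by
  have h1 := C.NE
  rw [card_eq_one.1 ((card_H_eq C.SK).trans h), normalizer_eq_top, relIndex_bot_left] at h1
  have := (irr_one_eq_one_of_comm' (comm_of_isCyclic (isCyclic_of_prime_card h1)) C.ir).symm.trans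
    C.theta_one
  exact hp.out.ne_one (by exact_mod_cast this.symm)

theorem exists_fix : ∃ a : Ω, ∀ y ∈ S.H, y • a = a := by
  obtain ⟨r, hr, hd⟩ := Nat.exists_prime_and_dvd C.fi_ne
  have := Fact.mk hr
  obtain ⟨y, hy⟩ := exists_prime_orderOf_dvd_card' (G := S.H) r (card_H_eq C.SK ▸ hd)
  rw [← orderOf_coe] at hy
  have h1 := (C.fx_mod hr (hy ▸ pow_orderOf_eq_one (y : G))).dvd
  obtain ⟨a, ha⟩ : (fs Ω (y : G)).Nonempty := card_pos.1 (Nat.pos_of_ne_zero fun e => by
    rw [show fx Ω (y : G) = 0 from e, Nat.cast_zero, sub_zero, Int.natCast_dvd_natCast] at h1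
    exact hr.ne_one (Nat.eq_one_of_dvd_coprimes ((Nat.coprime_self_sub_right hp.out.one_le).2
      (by simp)) h1 (hd.trans S.fi_dvd)))
  rw [mem_fs] at ha
  exact ⟨a, fun x hx => C.fix_eq y.2 (fun e => hr.ne_one (by rw [← hy, e, orderOf_one])) ha
    (by rw [← mul_smul, C.comm _ y.2 _ hx, mul_smul, ha])⟩

theorem theta_zp {i : ZMod p} (hi : i ≠ 0) : θ (S.zp i) = 0 :=
  vanish_of_dvd C.ir C.theta_one dvd_rfl (S.orderOf_zp hi).symm.dvd S

theorem theta_lin : ∃ i : Lin S.N, ∀ y ∈ S.H, y ≠ 1 → θ y = lin i y := by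
  have hK : S.K ≤ center G := C.SK.le.trans bot_le
  obtain ⟨σ, h1, -, h2⟩ := eq_of_mu_P hK (isCh_of_irr C.ir) (mu_of_eq (by
    rw [ip_triv_right, sum_eq_single 1, C.theta_one, S.card_P, inv_mul_cancel₀ natCast_p_ne_zero,
      Nat.cast_one]
    · intro x hx x1
      obtain ⟨i, rfl⟩ := S.mem_P_iff.1 (mem_els.1 hx)
      exact C.theta_zp (mt S.zp_eq_one_iff.2 x1)
    · simp))
  obtain ⟨i, rfl⟩ := exists_lin (isCh_of_irr (mem_irrK.1 h1).1) (lin_of_ker hK h1)
  exact ⟨i, fun y hy y1 => h2 y (S.H_le hy) (notMem_C_of_mem_H C.SK hy y1)⟩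

theorem perf : commutator G = ⊤ := eq_top_iff.2 fun g _ => by
  by_contra h
  obtain ⟨φ, hφ⟩ := CommGroup.exists_apply_ne_one_of_hasEnoughRootsOfUnity (Abelianization G) ℂ
    (a := Abelianization.of g) fun e => h (Abelianization.ker_of G ▸ e)
  obtain ⟨l, hl⟩ := exists_lin_of_mul (W := ⊤) (φ := fun g => (φ (Abelianization.of g) : ℂ))
    (by simp) (by simp)
  obtain ⟨i, hi⟩ := C.theta_lin
  have h1 := C.uniq _ (mul_mem_irr_of_one C.ir (isCh_lin l) (lin_apply_one l))
    (BlockB.charDegree_of_eq (by simp [C.theta_one]))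
  obtain ⟨m, hm, y, hy, rfl⟩ := S.exists_mul_H (S.z_mem_commutator C.fi_ne) g
  refine hφ ?_
  rw [map_mul, show Abelianization.of m = 1 from (Abelianization.ker_of G).ge hm, one_mul]
  by_cases y1 : y = 1
  · simp [y1]
  have h2 := congrFun h1 y
  rwa [Pi.mul_apply, mul_eq_left₀ (hi y hy y1 ▸ lin_ne_zero i (S.H_le hy)), hl y trivial,
    Units.val_eq_one] at h2

theorem simple : IsSimpleGroup G := by
  have := C.faith
  have := C.tr
  have : IsPreprimitive G Ω :=
    IsPreprimitive.of_prime_card (by rw [Nat.card_eq_fintype_card, C.card]; exact hp.out)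
  have : Nontrivial G := ⟨_, _, S.z_ne_one⟩
  refine ⟨fun M hM => or_iff_not_imp_left.2 fun h => eq_top_iff.2 (C.perf.ge.trans
    (commutator_le C.SK (S.z_mem_of_dvd ?_)))⟩
  rw [← C.card, ← Nat.card_eq_fintype_card]
  exact card_dvd_of_normal h

theorem not_solv : ¬ Group.IsSolvable G := fun _ => by
  have : Nontrivial G := ⟨_, _, S.z_ne_one⟩
  exact (Group.IsSolvable.commutator_lt_top_of_nontrivial G).ne C.perf

theorem not_normal : ¬ S.P.Normal := fun h => by
  have := C.simple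
  rcases IsSimpleGroup.eq_bot_or_eq_top_of_normal _ h with e | e
  · exact S.z_ne_one (Subgroup.mem_bot.1 (e.le (mem_zpowers _)))
  · have := isCyclic_of_prime_card ((card_top.symm.trans (e ▸ S.card_P)))
    exact C.not_solv (Group.isSolvable_of_comm IsCyclic.isMulCommutative.is_comm.comm)

theorem card_cent {y : G} (hy : y ∈ S.H) (y1 : y ≠ 1) :
    Nat.card (centralizer ({y} : Set G)) ≤ 2 * S.fi := by
  rw [← card_H_eq C.SK, ← C.NE, ← card_eq_relIndex_mul le_normalizer]
  exact card_le_of_le fun g hg =>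
    C.ti.centralizer_le ⟨hy, y1⟩ trivial (mem_centralizer_singleton_iff.1 hg)

end Uc

end CF.Ito
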